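import Cfsg.Agent.Lib.BGMainTypes.WeakSets
import Cfsg.Agent.Lib.FT.PairHyp
import Cfsg.Agent.Lib.FT.Pair.KernelTwo
import Cfsg.Agent.Lib.FT.Pair.KernelTI

/-!
Peterfalvi (13.2): the members of the pair are of Type II or III, with elementary abelian kernels
and `A₀` a TI-subset (the content of S1543).  The inputs from sections 10 and 11 are explicit
hypotheses.
-/

set_option autoImplicit false
set_option linter.style.haveILetI false
set_option linter.unusedSectionVars false

namespace CfsgLib.FT.Pair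

open CfsgLib.BGMainTypes (IsTypeIWeak typeAW typeA0W SupportsW)

open Cfsg CfsgLib.PFLocal

universe u

variable {G : Type u} [Group G] [Finite G] {S T W₁ W₂ U V : Subgroup G}

/-- What sections 10 and 11 give: there is no Type V, and a subgroup of Type III or IV has Type
III, kernel elementary abelian of order `|W₂| ^ |W₁|`, `|W₂| < |W₁|` and `U` cyclic. -/
structure TypeFacts (G : Type u) [Group G] : Prop where
  not_typeV : ∀ M : Subgroup G, IsCoatom M → ¬ IsOfTypeV M
  typeThreeFour : ∀ M W₁ U W₂ : Subgroup G, IsCoatom M → IsTypePWith M W₁ U W₂ →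
    (IsOfTypeIII M ∨ IsOfTypeIV M) →
    IsOfTypeIII M ∧ Nat.card W₂ < Nat.card W₁ ∧
      IsElementaryAbelian (Nat.card W₂) (fittingHallOf M) ∧
      Nat.card (fittingHallOf M) = Nat.card W₂ ^ Nat.card W₁ ∧ IsCyclic U

theorem types_of_pair (h : PairHyp S T W₁ W₂ U V) (hF : TypeFacts G) :
    IsOfTypeII S ∨ IsOfTypeIII S ∨ IsOfTypeIV S := by
  rcases h.typesS with h1 | h1 | h1 | h1
  exacts [Or.inl h1, Or.inr (Or.inl h1), Or.inr (Or.inr h1),
    absurd h1 (hF.not_typeV S h.coatomS)]

theorem card_W₂_prime (h : PairHyp S T W₁ W₂ U V) (hF : TypeFacts G) : (Nat.card W₂).Prime :=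
  (prime_and_ne_bot h.dataT (types_of_pair h.symm hF)).1

/-- Peterfalvi (13.2), in the form of S1543. -/
theorem pair_structure (h : PairHyp S T W₁ W₂ U V) (B : BGData G) (hF : TypeFacts G) :
    (IsOfTypeII S ∨ IsOfTypeIII S) ∧ (Nat.card W₁ < Nat.card W₂ → IsOfTypeII S) ∧
      IsElementaryAbelian (Nat.card W₂) (fittingHallOf S) ∧
      Nat.card (fittingHallOf S) = Nat.card W₂ ^ Nat.card W₁ ∧
      IsTISubset (typeA0W S) ∧ Subgroup.normalizer (typeA0W S) = S := by
  have hn := normalizer_typeSet h.minSimple B h.coatomS (A := typeA0W S) (Or.inr (Or.inr rfl))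
  by_cases hII : IsOfTypeII S
  · obtain ⟨hel, hcard, -⟩ := kernel_of_typeII h.dataS hII (card_W₂_prime h hF)
    exact ⟨Or.inl hII, fun _ => hII, hel, hcard,
      typeII_tiSubset h.minSimple B h.coatomS hII (Or.inr (Or.inr rfl)), hn⟩
  · obtain ⟨hIII, hlt, hel, hcard, hU⟩ := hF.typeThreeFour S W₁ U W₂ h.coatomS h.dataS
      ((types_of_pair h hF).resolve_left hII)
    exact ⟨Or.inr hIII, fun hc => absurd (hc.trans hlt) (lt_irrefl _), hel, hcard,
      typeIII_tiSubset h.minSimple B h.coatomS hIII h.dataS hU, hn⟩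

end CfsgLib.FT.Pair
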